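import Mathlib
import Cfsg.Agent.Lib.Helper99.GUSP.Defs
import Cfsg.Agent.Lib.Helper40.SpImprim
import Cfsg.Agent.Lib.Helper13.Symp

/-!
# S5976 (GUSP): package [DERA]

`r` odd, `r ≠ p`, the order `i` of `q` mod `r` odd and `≤ d`: a derangement of order `r`.
-/

set_option autoImplicit false

namespace Cfsg.Agent.Lib.Helper67.GUSP

open Matrix Polynomial Cfsg.Agent.Lib.Helper99.GUSP

universe u

section Abstract

variable {K : Type*} [Field K] {V : Type*} [AddCommGroup V] [Module K V]

theorem coprime_of_ne' {p q : K[X]} (hp : Irreducible p) (hpm : p.Monic) (hqm : q.Monic)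
    (hq : Irreducible q) (hne : p ≠ q) : IsCoprime p q := by
  apply (hp.coprime_iff_not_dvd).2
  intro hdvd
  exact hne (eq_of_monic_of_associated hpm hqm (hp.associated_of_dvd hq hdvd))

/-- Three pairwise coprime polynomials whose product kills `f`: the kernels add up. -/
theorem finrank_three [FiniteDimensional K V] (f : Module.End K V) {P Q R : K[X]}
    (hPQ : IsCoprime P Q) (hPR : IsCoprime P R) (hQR : IsCoprime Q R)
    (h0 : aeval f (P * (Q * R)) = 0) :
    Module.finrank K (LinearMap.ker (aeval f P)) + Module.finrank K (LinearMap.ker (aeval f Q))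
      + Module.finrank K (LinearMap.ker (aeval f R)) = Module.finrank K V := by
  have h1 := Polynomial.sup_ker_aeval_eq_ker_aeval_mul_of_coprime f (hPQ.mul_right hPR)
  have h2 := Polynomial.disjoint_ker_aeval_of_isCoprime f (hPQ.mul_right hPR)
  have h3 := Polynomial.sup_ker_aeval_eq_ker_aeval_mul_of_coprime f hQR
  have h4 := Polynomial.disjoint_ker_aeval_of_isCoprime f hQR
  rw [h0, LinearMap.ker_zero] at h1
  have e1 := Submodule.finrank_sup_add_finrank_inf_eq (LinearMap.ker (aeval f P))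
    (LinearMap.ker (aeval f (Q * R)))
  have e2 := Submodule.finrank_sup_add_finrank_inf_eq (LinearMap.ker (aeval f Q))
    (LinearMap.ker (aeval f R))
  rw [h1, disjoint_iff.mp h2, finrank_bot, finrank_top] at e1
  rw [h3, disjoint_iff.mp h4, finrank_bot] at e2
  omega

theorem commute_aeval' (f T : Module.End K V) (h : Commute f T) (P : K[X]) :
    Commute (aeval f P) T := by
  induction P using Polynomial.induction_on' with
  | add p q hp hq => rw [map_add]; exact hp.add_left hq
  | monomial n a =>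
    rw [aeval_monomial]
    exact (Algebra.commute_algebraMap_left a T).mul_left (h.pow_left n)

end Abstract

open Cfsg.Agent.Lib.Helper40.PrimeOrderGL Cfsg.Agent.Lib.Helper40.SpImprim in
/-- [DERA] -/
theorem pkgDerA : PkgDerA.{u} := by
  intro hEven F _ _ p _ _ hq d r hr hr2 hrp hodd hle
  classical
  haveI : Fact r.Prime := ⟨hr⟩
  have hp : p.Prime := Fact.out
  obtain ⟨S, dg, hS, hSne, hdg, hdd, -, hoddne⟩ :=
    exists_data (F := F) (p := p) (q := Fintype.card F) rfl r hr2 hrp
      (orderOf ((Fintype.card F : ℕ) : ZMod r)) rfl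
  generalize orderOf ((Fintype.card F : ℕ) : ZMod r) = i at hodd hle hS hoddne
  have hi0 : 0 < i := hodd.pos
  obtain ⟨π₀', hπ₀'⟩ := hSne
  obtain ⟨π₀, hπ₀⟩ : ∃ π₀ : S, π₀ = ⟨π₀', hπ₀'⟩ := ⟨_, rfl⟩
  obtain ⟨π₁, hπ₁⟩ : ∃ π₁ : S, π₁ = dg π₀ := ⟨_, rfl⟩
  have hne : π₁ ≠ π₀ := by rw [hπ₁]; exact hoddne hodd π₀
  have hne' : (π₀ : F[X]) ≠ (π₁ : F[X]) := fun h => hne (Subtype.ext h.symm)
  obtain ⟨m, hmdef⟩ : ∃ m : S → ℕ, m = fun π => if π = π₀ ∨ π = π₁ then 1 else 0 := ⟨_, rfl⟩
  have hm : ∀ π, m (dg π) = m π := by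
    intro π
    have e1 : dg π = π₀ ↔ π = π₁ := by
      constructor
      · intro h; rw [hπ₁, ← h, hdd]
      · intro h; rw [h, hπ₁, hdd]
    have e2 : dg π = π₁ ↔ π = π₀ := by
      constructor
      · intro h
        have := congrArg dg h
        rw [hdd, hπ₁, hdd] at this
        exact this
      · intro h; rw [h, hπ₁]
    rw [hmdef]
    simp only [e1, e2]
    by_cases h1 : π = π₀ <;> by_cases h2 : π = π₁ <;> simp [h1, h2]
  have hfilt : (Finset.univ : Finset S).filter (fun π => π = π₀ ∨ π = π₁) = {π₀, π₁} := by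
    ext π; simp
  have hsum : ∑ π, m π = 2 := by
    rw [hmdef, Finset.sum_ite, Finset.sum_const_zero, add_zero, Finset.sum_const, hfilt,
      Finset.card_pair hne.symm]
    rfl
  have hprod : ∏ π : S, (π : F[X]) ^ m π = (π₀ : F[X]) * (π₁ : F[X]) := by
    rw [hmdef]
    have : ∀ π : S, (π : F[X]) ^ (if π = π₀ ∨ π = π₁ then 1 else 0)
        = if π = π₀ ∨ π = π₁ then (π : F[X]) else 1 := by
      intro π; split_ifs <;> simp
    simp only [this]
    rw [Finset.prod_ite, Finset.prod_const_one, mul_one, hfilt, Finset.prod_pair hne.symm]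
  obtain ⟨g, hgr, hgχ⟩ := exists_sp_chi p hS hr hr2 dg hdg d m hm (by rw [hsum]; omega)
  rw [hsum] at hgχ
  obtain ⟨M, hM⟩ : ∃ M : Matrix (SI d) (SI d) F, M = g.1 := ⟨_, rfl⟩
  rw [← hM] at hgr hgχ
  have hrF : (r : F) ≠ 0 := by
    rw [Ne, CharP.cast_eq_zero_iff F p r]
    intro h
    exact hrp ((Nat.prime_dvd_prime_iff_eq hp hr).1 h).symm
  -- the linear map
  obtain ⟨f, hf⟩ : ∃ f : Module.End F (SI d → F), f = Matrix.toLin' M := ⟨_, rfl⟩
  have hfr : f ^ r = 1 := by rw [hf, Cfsg.Agent.Lib.Helper40.SpImprim.toLin_pow, hgr, Matrix.toLin'_one]; rfl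
  have hχf : f.charpoly = (X - C 1) ^ (2 * d - i * 2) * ((π₀ : F[X]) * (π₁ : F[X])) := by
    rw [hf, Matrix.charpoly_toLin', hgχ]
    unfold chi
    rw [hprod]
  have hirr0 := hS.irred π₀ π₀.2
  have hirr1 := hS.irred π₁ π₁.2
  have hmon0 := hS.monic π₀ π₀.2
  have hmon1 := hS.monic π₁ π₁.2
  have hX0 : (X - C 1 : F[X]) ≠ π₀ := fun h => hS.notMem (h ▸ π₀.2)
  have hX1 : (X - C 1 : F[X]) ≠ π₁ := fun h => hS.notMem (h ▸ π₁.2)
  have c01 : IsCoprime (π₀ : F[X]) (π₁ : F[X]) := coprime_of_ne' hirr0 hmon0 hmon1 hirr1 hne'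
  have cX0 : IsCoprime (X - C 1 : F[X]) (π₀ : F[X]) :=
    coprime_of_ne' (irreducible_X_sub_C 1) (monic_X_sub_C 1) hmon0 hirr0 hX0
  have cX1 : IsCoprime (X - C 1 : F[X]) (π₁ : F[X]) :=
    coprime_of_ne' (irreducible_X_sub_C 1) (monic_X_sub_C 1) hmon1 hirr1 hX1
  -- the product kills f
  have hkill : aeval f ((X - C 1 : F[X]) * ((π₀ : F[X]) * (π₁ : F[X]))) = 0 := by
    have hss : Module.End.IsSemisimple f := by
      rw [hf]
      exact Cfsg.Agent.Lib.Helper40.SympWall.isSemisimple_of_pow_eq_one' M r hrF hgr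
    have hsq := hss.minpoly_squarefree
    have h1 : minpoly F f ∣
        ((X - C 1 : F[X]) * ((π₀ : F[X]) * (π₁ : F[X]))) ^ (2 * d - i * 2 + 1) := by
      refine (LinearMap.minpoly_dvd_charpoly f).trans ?_
      rw [hχf, mul_pow, pow_succ ((π₀ : F[X]) * (π₁ : F[X]))]
      exact mul_dvd_mul (pow_dvd_pow _ (Nat.le_succ _)) (Dvd.intro_left _ rfl)
    obtain ⟨c, hc⟩ := (hsq.dvd_pow_iff_dvd (Nat.succ_ne_zero _)).1 h1
    rw [hc, map_mul, minpoly.aeval, zero_mul]
  have hsum3 := finrank_three f cX0 cX1 c01 hkill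
  have hfixeq : LinearMap.ker (aeval f (X - C 1 : F[X])) = fixS f := by
    unfold fixS
    congr 1
    simp
  have hfix : Module.finrank F (fixS f) = 2 * d - i * 2 := by
    rw [hf]
    exact finrank_fix_of_chi hS hrF M hgr m _ hgχ
  have hV : Module.finrank F (SI d → F) = 2 * d := by
    rw [Module.finrank_fintype_fun_eq_card, Fintype.card_sum, Fintype.card_fin]
    omega
  rw [hfixeq, hfix, hV] at hsum3
  -- the two kernels
  have key : ∀ π : F[X], Irreducible π → π ∣ f.charpoly → IsCoprime (X - C 1 : F[X]) π →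
      i ≤ Module.finrank F (LinearMap.ker (aeval f π)) := by
    intro π hπ hdvd hcop
    have hinv : (LinearMap.ker (aeval f π)).map f ≤ LinearMap.ker (aeval f π) := by
      rintro _ ⟨w, hw, rfl⟩
      rw [SetLike.mem_coe, LinearMap.mem_ker] at hw
      rw [LinearMap.mem_ker]
      have hc := commute_aeval' f f (Commute.refl f) π
      have := congrArg (fun T : Module.End F (SI d → F) => T w) hc.eq
      simp only [Module.End.mul_apply] at this
      rw [this, hw, map_zero]
    have h1 := dvd_sub_fix hS hrF f hfr _ hinv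
    have h2 : (LinearMap.ker (aeval f π) ⊓ fixS f : Submodule F (SI d → F)) = ⊥ := by
      rw [← hfixeq, inf_comm]
      exact disjoint_iff.mp (Polynomial.disjoint_ker_aeval_of_isCoprime f hcop)
    rw [h2, finrank_bot, Nat.sub_zero] at h1
    obtain ⟨v, hv, hv0⟩ :=
      Cfsg.Agent.Lib.Helper40.exists_ne_zero_aeval_eq_zero f π hπ hdvd
    have hpos : 0 < Module.finrank F (LinearMap.ker (aeval f π)) := by
      rw [Module.finrank_pos_iff_exists_ne_zero]
      exact ⟨⟨v, LinearMap.mem_ker.mpr hv0⟩, fun h => hv (congrArg Subtype.val h)⟩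
    exact Nat.le_of_dvd hpos h1
  have hd0 : (π₀ : F[X]) ∣ f.charpoly := by
    rw [hχf]; exact dvd_mul_of_dvd_right (dvd_mul_right _ _) _
  have hd1 : (π₁ : F[X]) ∣ f.charpoly := by
    rw [hχf]; exact dvd_mul_of_dvd_right (dvd_mul_left _ _) _
  have hW0 := key π₀ hirr0 hd0 cX0
  have hW1 := key π₁ hirr1 hd1 cX1
  have hWi : Module.finrank F (LinearMap.ker (aeval f (π₀ : F[X]))) = i := by omega
  -- the element
  obtain ⟨x, hx⟩ : ∃ x : GL (SI d) F, (x : Matrix (SI d) (SI d) F) = M :=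
    ⟨(IsUnit.of_pow_eq_one hgr hr.ne_zero).unit, rfl⟩
  refine ⟨x, ?_, by rw [hx]; exact hgr, ?_, ?_⟩
  · intro u v
    show Cfsg.sympForm d F ((x : Matrix (SI d) (SI d) F) *ᵥ u)
      ((x : Matrix (SI d) (SI d) F) *ᵥ v) = Cfsg.sympForm d F u v
    rw [hx, hM]
    exact Cfsg.Agent.Lib.Helper13.sympForm_mulVec_of_mem d g.2 u v
  · intro z hz
    rw [hx] at hz
    have hfz : f = algebraMap F (Module.End F (SI d → F)) z := by
      rw [hf, hz, map_smul, Matrix.toLin'_one, Algebra.algebraMap_eq_smul_one]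
      rfl
    have hroot : ∀ π : F[X], Irreducible π → π ∣ f.charpoly → π.eval z = 0 := by
      intro π hπ hdvd
      obtain ⟨v, hv, hv0⟩ :=
        Cfsg.Agent.Lib.Helper40.exists_ne_zero_aeval_eq_zero f π hπ hdvd
      rw [hfz, Polynomial.aeval_algebraMap_apply_eq_algebraMap_eval, Module.algebraMap_end_apply]
        at hv0
      exact (smul_eq_zero.mp hv0).resolve_right hv
    obtain ⟨A, B, hAB⟩ := c01
    have h1 := congrArg (Polynomial.eval z) hAB
    rw [eval_add, eval_mul, eval_mul, hroot _ hirr0 hd0, hroot _ hirr1 hd1, mul_zero, mul_zero,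
      add_zero, eval_one] at h1
    exact zero_ne_one h1
  · intro a α ha hα hPM
    rw [hx] at hPM
    have hcomm : M * α = α * M := by
      rcases hPM with h | h
      · exact h
      · have h2 : Commute (M * M) α := by
          show (M * M) * α = α * (M * M)
          rw [Matrix.mul_assoc, h, Matrix.mul_neg, ← Matrix.mul_assoc, h, Matrix.neg_mul, neg_neg,
            Matrix.mul_assoc]
        obtain ⟨t, ht⟩ : Odd r := hr.odd_of_ne_two hr2
        have h3 : (M * M) ^ (t + 1) = M := by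
          rw [← pow_two, ← pow_mul, show 2 * (t + 1) = r + 1 by omega, pow_succ, hgr, one_mul]
        have h4 := h2.pow_left (t + 1)
        rw [h3] at h4
        exact h4
    have hWinv : ∀ w ∈ LinearMap.ker (aeval f (π₀ : F[X])),
        α *ᵥ w ∈ LinearMap.ker (aeval f (π₀ : F[X])) := by
      intro w hw
      rw [LinearMap.mem_ker] at hw ⊢
      have hc : Commute f (Matrix.toLin' α) := by
        rw [hf]
        show Matrix.toLin' M * Matrix.toLin' α = Matrix.toLin' α * Matrix.toLin' M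
        rw [Module.End.mul_eq_comp, Module.End.mul_eq_comp, ← Matrix.toLin'_mul,
          ← Matrix.toLin'_mul, hcomm]
      have hc2 := commute_aeval' f (Matrix.toLin' α) hc (π₀ : F[X])
      have := congrArg (fun T : Module.End F (SI d → F) => T w) hc2.eq
      simp only [Module.End.mul_apply] at this
      rw [← Matrix.toLin'_apply, this, hw, map_zero]
    have hev := hEven d a α ha hα.1 _ hWinv
    rw [hWi] at hev
    exact (Nat.not_even_iff_odd.mpr hodd) hev

end Cfsg.Agent.Lib.Helper67.GUSP
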